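import Mathlib
import Cfsg.Prelude.Def_Sporadic_a

/-!
Abstract length-24 binary codes of dimension 12 with minimum weight at least 8: every coset has
either a unique word of weight at most 3 or six disjoint words of weight 4; octads form S(5,8,24)
and span the code.
-/

set_option autoImplicit false

namespace Cfsg.Agent.AbstractGolay

open Finset symmDiff

set_option linter.unusedSectionVars false

variable {α : Type*} [Fintype α] [DecidableEq α]

/-- The word with a given support. -/
def word (a : Finset α) : α → ZMod 2 := fun i => if i ∈ a then 1 else 0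

theorem support₂_word (a : Finset α) : Cfsg.support₂ (word a) = a := by
  ext i
  by_cases h : i ∈ a <;> simp [Cfsg.support₂, word, h]

theorem word_support₂ (w : α → ZMod 2) : word (Cfsg.support₂ w) = w := by
  funext i
  rcases (by decide : ∀ x : ZMod 2, x = 0 ∨ x = 1) (w i) with h | h <;>
    simp [Cfsg.support₂, word, h]

theorem hammingNorm_eq_card (w : α → ZMod 2) : hammingNorm w = (Cfsg.support₂ w).card := rfl

theorem hammingNorm_word (a : Finset α) : hammingNorm (word a) = a.card := by
  rw [hammingNorm_eq_card, support₂_word]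

theorem word_add (a b : Finset α) : word a + word b = word (a ∆ b) := by
  funext i
  by_cases ha : i ∈ a <;> by_cases hb : i ∈ b <;>
    simp [word, Finset.mem_symmDiff, ha, hb]; decide

theorem word_sub (a b : Finset α) : word a - word b = word (a ∆ b) := by
  rw [← word_add]
  funext i
  exact (by decide : ∀ x y : ZMod 2, x - y = x + y) _ _

theorem word_injective : Function.Injective (word : Finset α → α → ZMod 2) :=
  fun a b h => by rw [← support₂_word a, h, support₂_word]

theorem dot_word (a b : Finset α) : ∑ i, word a i * word b i = ((a ∩ b).card : ZMod 2) := by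
  have h : ∀ i, word a i * word b i = if i ∈ a ∩ b then 1 else 0 := fun i => by
    by_cases ha : i ∈ a <;> by_cases hb : i ∈ b <;> simp [word, ha, hb]
  simp_rw [h, Finset.sum_boole, Finset.filter_univ_mem]

theorem card_symmDiff_add (a b : Finset α) : (a ∆ b).card + 2 * (a ∩ b).card = a.card + b.card := by
  have h1 : Disjoint (a \ b) (b \ a) := disjoint_sdiff_sdiff
  have h2 : (a ∆ b).card = (a \ b).card + (b \ a).card := by
    rw [Finset.symmDiff_def, Finset.card_union_of_disjoint h1]
  have h3 := Finset.card_sdiff_add_card_inter a b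
  have h4 := Finset.card_sdiff_add_card_inter b a
  rw [Finset.inter_comm b a] at h4
  omega

variable {C : Submodule (ZMod 2) (Fin 24 → ZMod 2)}

/-- The coset of a subset. -/
def cl (C : Submodule (ZMod 2) (Fin 24 → ZMod 2)) (a : Finset (Fin 24)) :
    (Fin 24 → ZMod 2) ⧸ C := Submodule.Quotient.mk (word a)

theorem cl_eq_iff (a b : Finset (Fin 24)) : cl C a = cl C b ↔ word (a ∆ b) ∈ C := by
  rw [cl, cl, Submodule.Quotient.eq, word_sub]

theorem eq_of_cl_eq (hmin : ∀ w ∈ C, w ≠ 0 → 8 ≤ hammingNorm w) {a b : Finset (Fin 24)}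
    (h : cl C a = cl C b) (hc : (a ∆ b).card < 8) : a = b := by
  by_contra hne
  have hne' : word (a ∆ b) ≠ 0 := by
    intro h0
    have : a ∆ b = ∅ := by
      rw [← support₂_word (a ∆ b), h0]
      simp [Cfsg.support₂]
    exact hne (symmDiff_eq_bot.mp this)
  have := hmin _ ((cl_eq_iff a b).mp h) hne'
  rw [hammingNorm_word] at this
  omega

theorem disjoint_of_cl_eq (hmin : ∀ w ∈ C, w ≠ 0 → 8 ≤ hammingNorm w) {a b : Finset (Fin 24)}
    (ha : a.card ≤ 4) (hb : b.card ≤ 4) (h : cl C a = cl C b) (hne : a ≠ b) :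
    a.card = 4 ∧ b.card = 4 ∧ Disjoint a b := by
  have h8 : ¬ (a ∆ b).card < 8 := fun hc => hne (eq_of_cl_eq hmin h hc)
  have := card_symmDiff_add a b
  refine ⟨by omega, by omega, Finset.disjoint_iff_inter_eq_empty.mpr ?_⟩
  exact Finset.card_eq_zero.mp (by omega)

theorem card_quotient (hdim : Module.finrank (ZMod 2) C = 12) :
    Nat.card ((Fin 24 → ZMod 2) ⧸ C) = 4096 := by
  have h := C.finrank_quotient_add_finrank
  rw [hdim, Module.finrank_fin_fun] at h
  rw [Module.natCard_eq_pow_finrank (K := ZMod 2), Nat.card_zmod,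
    show Module.finrank (ZMod 2) ((Fin 24 → ZMod 2) ⧸ C) = 12 by omega]
  norm_num

theorem cl_surj_small (hdim : Module.finrank (ZMod 2) C = 12)
    (hmin : ∀ w ∈ C, w ≠ 0 → 8 ≤ hammingNorm w) (q : (Fin 24 → ZMod 2) ⧸ C) :
    (∃ a : Finset (Fin 24), a.card ≤ 3 ∧ cl C a = q ∧ ∀ b : Finset (Fin 24), b.card ≤ 4 →
        cl C b = q → b = a) ∨
    (∃ F : Finset (Finset (Fin 24)), F.card = 6 ∧
      (∀ b : Finset (Fin 24), b ∈ F ↔ b.card ≤ 4 ∧ cl C b = q) ∧ (∀ b ∈ F, b.card = 4) ∧
      (∀ b ∈ F, ∀ b' ∈ F, b ≠ b' → Disjoint b b') ∧ F.biUnion id = Finset.univ) := by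
  classical
  haveI := Fintype.ofFinite ((Fin 24 → ZMod 2) ⧸ C)
  set U : Finset (Fin 24) := Finset.univ
  have hU : U.card = 24 := by simp [U]
  set S : Finset (Finset (Fin 24)) :=
    (Finset.range 4).biUnion fun k => U.powersetCard k with hS
  set T : Finset (Finset (Fin 24)) := U.powersetCard 4 with hT
  have memS : ∀ a, a ∈ S ↔ a.card ≤ 3 := by
    intro a; simp [hS, U, Finset.mem_powersetCard]; omega
  have memT : ∀ a, a ∈ T ↔ a.card = 4 := by intro a; simp [hT, U, Finset.mem_powersetCard]
  have cS : S.card = 2325 := by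
    rw [hS, Finset.card_biUnion]
    · simp only [Finset.card_powersetCard, hU, Finset.sum_range_succ, Finset.sum_range_zero]
      rfl
    · intro i _ j _ hij
      rw [Function.onFun, Finset.disjoint_left]
      intro a ha hb
      rw [Finset.mem_powersetCard] at ha hb
      omega
  have cT : T.card = 10626 := by rw [hT, Finset.card_powersetCard, hU]; rfl
  have injS : Set.InjOn (cl C) (S : Set (Finset (Fin 24))) := by
    intro a ha b hb h
    by_contra hne
    have := disjoint_of_cl_eq hmin (by have := (memS a).mp ha; omega)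
      (by have := (memS b).mp hb; omega) h hne
    have := (memS a).mp ha; omega
  have disj : Disjoint (S.image (cl C)) (T.image (cl C)) := by
    rw [Finset.disjoint_left]
    simp only [Finset.mem_image]
    rintro _ ⟨a, ha, rfl⟩ ⟨b, hb, h⟩
    have ha' := (memS a).mp ha
    have hb' := (memT b).mp hb
    have := disjoint_of_cl_eq hmin (by omega) (by omega) h (by intro e; rw [e] at hb'; omega)
    omega
  have fib : ∀ x ∈ T.image (cl C), (T.filter fun a => cl C a = x).card ≤ 6 := by
    intro x _
    set F := T.filter fun a => cl C a = x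
    have hd : (F : Set (Finset (Fin 24))).PairwiseDisjoint id := by
      intro a ha b hb hne
      simp only [F, Finset.coe_filter, Set.mem_setOf_eq, memT] at ha hb
      exact (disjoint_of_cl_eq hmin (by omega) (by omega) (ha.2.trans hb.2.symm) hne).2.2
    have := Finset.card_biUnion hd
    have h4 : ∑ a ∈ F, (id a).card = 4 * F.card := by
      rw [Finset.sum_congr rfl (f := fun a => (id a).card) (g := fun _ => 4) (s₂ := F)
          (fun a ha => (memT a).mp (Finset.mem_filter.mp ha).1),
        Finset.sum_const, smul_eq_mul, mul_comm]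
    have hle : (F.biUnion id).card ≤ 24 :=
      (Finset.card_le_univ _).trans_eq (Fintype.card_fin 24)
    omega
  have htot : (S.image (cl C)).card + (T.image (cl C)).card ≤ 4096 := by
    rw [← Finset.card_union_of_disjoint disj]
    refine (Finset.card_le_univ _).trans ?_
    rw [← card_quotient hdim, Nat.card_eq_fintype_card]
  rw [Finset.card_image_of_injOn injS, cS] at htot
  have hsum := Finset.card_eq_sum_card_fiberwise
    (f := cl C) (s := T) (t := T.image (cl C)) (fun a ha => Finset.mem_image_of_mem _ ha)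
  have hge := (hsum.le.trans (Finset.sum_le_card_nsmul _ _ 6 fib))
  rw [cT, smul_eq_mul] at hge
  have hTI : (T.image (cl C)).card = 1771 := by omega
  have huniv : S.image (cl C) ∪ T.image (cl C) = Finset.univ := by
    apply Finset.eq_univ_of_card
    rw [Finset.card_union_of_disjoint disj, Finset.card_image_of_injOn injS, cS, hTI,
      ← Nat.card_eq_fintype_card, card_quotient hdim]
  have hq : q ∈ S.image (cl C) ∪ T.image (cl C) := huniv ▸ Finset.mem_univ q
  rcases Finset.mem_union.mp hq with hq | hq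
  · left
    obtain ⟨a, ha, rfl⟩ := Finset.mem_image.mp hq
    have ha' := (memS a).mp ha
    refine ⟨a, ha', rfl, fun b hb h => ?_⟩
    by_contra hne
    have := disjoint_of_cl_eq hmin hb (by omega) h hne
    omega
  · right
    set F := T.filter fun a => cl C a = q with hF
    have h6 : F.card = 6 := by
      refine le_antisymm (fib q hq) ?_
      by_contra hlt
      have : ∑ x ∈ T.image (cl C), (T.filter fun a => cl C a = x).card <
          ∑ _x ∈ T.image (cl C), 6 :=
        Finset.sum_lt_sum fib ⟨q, hq, by rw [← hF]; omega⟩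
      rw [← hsum, Finset.sum_const, cT, hTI, smul_eq_mul] at this
      omega
    have h4 : ∀ b ∈ F, b.card = 4 := fun b hb => (memT b).mp (Finset.mem_filter.mp hb).1
    have hdj : ∀ b ∈ F, ∀ b' ∈ F, b ≠ b' → Disjoint b b' := by
      intro b hb b' hb' hne
      have e := (Finset.mem_filter.mp hb).2.trans (Finset.mem_filter.mp hb').2.symm
      exact (disjoint_of_cl_eq hmin (h4 b hb).le (h4 b' hb').le e hne).2.2
    refine ⟨F, h6, fun b => ⟨fun hb => ⟨(h4 b hb).le, (Finset.mem_filter.mp hb).2⟩, ?_⟩,
      h4, hdj, ?_⟩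
    · rintro ⟨hb, hbq⟩
      obtain ⟨c, hc, hcq⟩ := Finset.mem_image.mp hq
      by_cases hcb : b = c
      · subst hcb; exact Finset.mem_filter.mpr ⟨hc, hbq⟩
      · have hc4 := (memT c).mp hc
        have := disjoint_of_cl_eq hmin hb hc4.le (hbq.trans hcq.symm) hcb
        exact Finset.mem_filter.mpr ⟨(memT b).mpr this.1, hbq⟩
    · apply Finset.eq_univ_of_card
      erw [Finset.card_biUnion (fun b hb b' hb' hne => hdj b hb b' hb' hne)]
      rw [
        Finset.sum_congr rfl (g := fun _ => 4) (fun b hb => h4 b hb), Finset.sum_const, h6,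
        Fintype.card_fin]
      rfl

/-- Every five coordinates lie in the support of exactly one word of weight 8. -/
theorem existsUnique_octad (hdim : Module.finrank (ZMod 2) C = 12)
    (hmin : ∀ w ∈ C, w ≠ 0 → 8 ≤ hammingNorm w) (s : Finset (Fin 24)) (hs : s.card = 5) :
    ∃! b, b ∈ Cfsg.wordsOfWeight (C : Set (Fin 24 → ZMod 2)) 8 ∧ s ⊆ b := by
  have mem_iff : ∀ b : Finset (Fin 24),
      b ∈ Cfsg.wordsOfWeight (C : Set (Fin 24 → ZMod 2)) 8 ↔ word b ∈ C ∧ b.card = 8 := by
    intro b
    constructor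
    · rintro ⟨⟨w, hw, rfl⟩, hb⟩
      exact ⟨(word_support₂ w).symm ▸ hw, hb⟩
    · rintro ⟨hw, hb⟩
      exact ⟨⟨word b, hw, support₂_word b⟩, hb⟩
  obtain ⟨t, hts, ht⟩ := Finset.exists_subset_card_eq (show 4 ≤ s.card by omega)
  obtain ⟨x, hx⟩ : ∃ x, x ∈ s \ t := by
    apply Finset.card_pos.mp
    rw [Finset.card_sdiff_of_subset hts]; omega
  rcases cl_surj_small hdim hmin (cl C t) with ⟨a, ha, _, hu⟩ | ⟨F, h6, hF, h4, hdj, hcov⟩
  · have := hu t ht.le rfl
    subst this; omega
  · obtain ⟨u, huF, hxu⟩ : ∃ u ∈ F, x ∈ u := by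
      have : x ∈ F.biUnion id := hcov ▸ Finset.mem_univ x
      simpa using this
    have htF : t ∈ F := (hF t).mpr ⟨ht.le, rfl⟩
    have hne : t ≠ u := by
      intro e; rw [← e] at hxu; exact (Finset.mem_sdiff.mp hx).2 hxu
    have hd := hdj t htF u huF hne
    have hb : t ∆ u = t ∪ u := hd.symmDiff_eq_sup
    refine ⟨t ∪ u, ⟨(mem_iff _).mpr ⟨hb ▸ (cl_eq_iff t u).mp ((hF u).mp huF).2.symm, ?_⟩, ?_⟩, ?_⟩
    · rw [Finset.card_union_of_disjoint hd, ht, h4 u huF]
    · intro y hy
      by_cases hyt : y ∈ t
      · exact Finset.mem_union_left _ hyt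
      · have hsd : s \ t = {x} := by
          rw [Finset.eq_singleton_iff_unique_mem]
          refine ⟨hx, fun z hz => ?_⟩
          have hcard : (s \ t).card = 1 := by rw [Finset.card_sdiff_of_subset hts]; omega
          exact Finset.card_le_one.mp hcard.le z hz x hx
        have : y ∈ s \ t := Finset.mem_sdiff.mpr ⟨hy, hyt⟩
        rw [hsd, Finset.mem_singleton] at this
        exact Finset.mem_union_right _ (this ▸ hxu)
    · rintro b ⟨hbm, hsb⟩
      obtain ⟨hbC, hb8⟩ := (mem_iff b).mp hbm
      have hu' : s ⊆ t ∪ u := by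
        intro y hy
        by_cases hyt : y ∈ t
        · exact Finset.mem_union_left _ hyt
        · have hcard : (s \ t).card = 1 := by rw [Finset.card_sdiff_of_subset hts]; omega
          have : y = x := Finset.card_le_one.mp hcard.le y (Finset.mem_sdiff.mpr ⟨hy, hyt⟩) x hx
          exact Finset.mem_union_right _ (this ▸ hxu)
      have hoC : word (t ∪ u) ∈ C := hb ▸ (cl_eq_iff t u).mp ((hF u).mp huF).2.symm
      by_contra hne'
      have hsub : word (b ∆ (t ∪ u)) ∈ C := word_add b (t ∪ u) ▸ C.add_mem hbC hoC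
      have h8 := hmin _ hsub (by
        intro h0
        have : b ∆ (t ∪ u) = ∅ := by
          rw [← support₂_word (b ∆ (t ∪ u)), h0]; simp [Cfsg.support₂]
        exact hne' (symmDiff_eq_bot.mp this))
      rw [hammingNorm_word] at h8
      have h5 : 5 ≤ (b ∩ (t ∪ u)).card := hs ▸ Finset.card_le_card (Finset.subset_inter hsb hu')
      have := card_symmDiff_add b (t ∪ u)
      have : (t ∪ u).card = 8 := by rw [Finset.card_union_of_disjoint hd, ht, h4 u huF]
      omega

/-- The words of weight 8 span the code. -/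
theorem span_octads (hdim : Module.finrank (ZMod 2) C = 12)
    (hmin : ∀ w ∈ C, w ≠ 0 → 8 ≤ hammingNorm w) :
    Submodule.span (ZMod 2) {w : Fin 24 → ZMod 2 | w ∈ C ∧ hammingNorm w = 8} = C := by
  refine le_antisymm (Submodule.span_le.mpr fun w hw => hw.1) ?_
  suffices h : ∀ (n : ℕ) (a : Finset (Fin 24)), a.card = n → word a ∈ C →
      word a ∈ Submodule.span (ZMod 2) {w : Fin 24 → ZMod 2 | w ∈ C ∧ hammingNorm w = 8} by
    intro w hw
    rw [← word_support₂ w] at hw ⊢
    exact h _ _ rfl hw
  intro n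
  induction n using Nat.strong_induction_on with
  | _ n ih =>
    intro a han haC
    rcases eq_or_ne (word a) 0 with h0 | h0
    · rw [h0]; exact zero_mem _
    · have h8 := hmin _ haC h0
      rw [hammingNorm_word] at h8
      obtain ⟨s, hsa, hs⟩ := Finset.exists_subset_card_eq (show 5 ≤ a.card by omega)
      obtain ⟨b, ⟨⟨⟨w, hw, rfl⟩, hb⟩, hsb⟩, -⟩ := existsUnique_octad hdim hmin s hs
      set b := Cfsg.support₂ w with hbdef
      have hbC : word b ∈ C := by rw [hbdef, word_support₂]; exact hw
      have hbS : word b ∈ Submodule.span (ZMod 2)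
          {w : Fin 24 → ZMod 2 | w ∈ C ∧ hammingNorm w = 8} :=
        Submodule.subset_span ⟨hbC, by rw [hammingNorm_word]; exact hb⟩
      have h5 : 5 ≤ (a ∩ b).card := hs ▸ Finset.card_le_card (Finset.subset_inter hsa hsb)
      have := card_symmDiff_add a b
      have hlt : (a ∆ b).card < n := by omega
      have hrec := ih _ hlt _ rfl (word_add a b ▸ C.add_mem haC hbC)
      have : word a = word (a ∆ b) + word b := by
        rw [word_add, symmDiff_symmDiff_cancel_right]
      rw [this]
      exact add_mem hrec hbS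

/-- Self-orthogonality with minimum weight 8 forces the code to be doubly even. -/
theorem four_dvd_norm (hdim : Module.finrank (ZMod 2) C = 12)
    (horth : ∀ v ∈ C, ∀ w ∈ C, ∑ i, v i * w i = 0)
    (hmin : ∀ w ∈ C, w ≠ 0 → 8 ≤ hammingNorm w) {w : Fin 24 → ZMod 2} (hw : w ∈ C) :
    4 ∣ hammingNorm w := by
  rw [← span_octads hdim hmin] at hw
  suffices h : w ∈ C ∧ 4 ∣ hammingNorm w from h.2
  induction hw using Submodule.span_induction with
  | mem x hx => exact ⟨hx.1, by rw [hx.2]; decide⟩
  | zero => exact ⟨C.zero_mem, by simp⟩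
  | add x y _ _ hx hy =>
    refine ⟨C.add_mem hx.1 hy.1, ?_⟩
    have hd := horth x hx.1 y hy.1
    rw [← word_support₂ x, ← word_support₂ y, dot_word] at hd
    have he : 2 ∣ (Cfsg.support₂ x ∩ Cfsg.support₂ y).card :=
      (ZMod.natCast_eq_zero_iff _ _).mp hd
    have h1 := hx.2
    have h2 := hy.2
    rw [hammingNorm_eq_card] at h1 h2
    rw [← word_support₂ x, ← word_support₂ y, word_add, hammingNorm_word]
    have := card_symmDiff_add (Cfsg.support₂ x) (Cfsg.support₂ y)
    omega
  | smul c x _ hx =>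
    refine ⟨C.smul_mem _ hx.1, ?_⟩
    rcases (by decide : ∀ c : ZMod 2, c = 0 ∨ c = 1) c with rfl | rfl
    · simp
    · simpa using hx.2

/-- In the coset of `word`s, the words of weight at most 4. -/
theorem coset_set_eq (w : Fin 24 → ZMod 2) :
    {u : Fin 24 → ZMod 2 | u - w ∈ C ∧ hammingNorm u ≤ 4} =
      word '' {b : Finset (Fin 24) | b.card ≤ 4 ∧ cl C b = Submodule.Quotient.mk w} := by
  ext u
  simp only [Set.mem_setOf_eq, Set.mem_image, cl, Submodule.Quotient.eq]
  constructor
  · rintro ⟨h1, h2⟩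
    exact ⟨Cfsg.support₂ u, ⟨h2, by rw [word_support₂]; exact h1⟩, word_support₂ u⟩
  · rintro ⟨b, ⟨h1, h2⟩, rfl⟩
    exact ⟨h2, by rw [hammingNorm_word]; exact h1⟩

end Cfsg.Agent.AbstractGolay
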